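import Mathlib

set_option autoImplicit false

open scoped commutatorElement

namespace Cfsg.Agent.Lib.Helper18

/-- Type synonym carrying Baer's commutative multiplication on a class-2 group of odd order. -/
def Baer (Γ : Type*) := Γ

namespace Baer

variable {Γ : Type*} [Group Γ]

theorem comm_mul_left (hcl : ∀ x y z : Γ, ⁅x, y⁆ * z = z * ⁅x, y⁆) (x y z : Γ) :
    ⁅x * y, z⁆ = ⁅x, z⁆ * ⁅y, z⁆ := by
  have h1 : ⁅x * y, z⁆ = x * ⁅y, z⁆ * (z * x⁻¹ * z⁻¹) := by
    simp only [commutatorElement_def]; group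
  rw [h1, ← hcl y z x, hcl x z]
  simp only [commutatorElement_def]; group

theorem comm_mul_right (hcl : ∀ x y z : Γ, ⁅x, y⁆ * z = z * ⁅x, y⁆) (x y z : Γ) :
    ⁅z, x * y⁆ = ⁅z, x⁆ * ⁅z, y⁆ := by
  rw [← commutatorElement_inv (x * y) z, comm_mul_left hcl, mul_inv_rev, commutatorElement_inv,
    commutatorElement_inv, hcl]

/-- the half commutator -/
def s (k : ℕ) (x y : Γ) : Γ := ⁅y, x⁆ ^ k

theorem s_central (hcl : ∀ x y z : Γ, ⁅x, y⁆ * z = z * ⁅x, y⁆) (k : ℕ) (x y z : Γ) :
    s k x y * z = z * s k x y := by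
  have : Commute ⁅y, x⁆ z := hcl y x z
  exact this.pow_left k

theorem s_mul_left (hcl : ∀ x y z : Γ, ⁅x, y⁆ * z = z * ⁅x, y⁆) (k : ℕ) (x y z : Γ) :
    s k (x * y) z = s k x z * s k y z := by
  unfold s
  rw [comm_mul_right hcl]
  exact (show Commute ⁅z, x⁆ ⁅z, y⁆ from hcl z x _).mul_pow k

theorem s_mul_right (hcl : ∀ x y z : Γ, ⁅x, y⁆ * z = z * ⁅x, y⁆) (k : ℕ) (x y z : Γ) :
    s k z (x * y) = s k z x * s k z y := by
  unfold s
  rw [comm_mul_left hcl]
  exact (show Commute ⁅x, z⁆ ⁅y, z⁆ from hcl x z _).mul_pow k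

theorem s_of_central_left (k : ℕ) (a y : Γ) (ha : ∀ z, a * z = z * a) : s k a y = 1 := by
  unfold s
  have : ⁅y, a⁆ = 1 := by
    rw [commutatorElement_eq_one_iff_mul_comm]; exact (ha y).symm
  rw [this, one_pow]

theorem s_of_central_right (k : ℕ) (a y : Γ) (ha : ∀ z, a * z = z * a) : s k y a = 1 := by
  unfold s
  have : ⁅a, y⁆ = 1 := by
    rw [commutatorElement_eq_one_iff_mul_comm]; exact ha y
  rw [this, one_pow]

theorem s_swap (k : ℕ) (x y : Γ) : s k y x * s k x y = 1 := by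
  unfold s
  rw [← commutatorElement_inv y x, inv_pow, inv_mul_cancel]

/-- Baer's multiplication. -/
def bmul (k : ℕ) (x y : Γ) : Γ := x * y * s k x y

theorem bmul_assoc (hcl : ∀ x y z : Γ, ⁅x, y⁆ * z = z * ⁅x, y⁆) (k : ℕ) (x y z : Γ) :
    bmul k (bmul k x y) z = bmul k x (bmul k y z) := by
  unfold bmul
  rw [s_mul_left hcl, s_mul_left hcl, s_mul_right hcl, s_mul_right hcl,
    s_of_central_left k (s k x y) z (s_central hcl k x y),
    s_of_central_right k (s k y z) x (s_central hcl k y z), mul_one, mul_one]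
  have e1 : (x * y * s k x y : Γ) * z = x * y * z * s k x y := by
    rw [mul_assoc (x * y), s_central hcl, ← mul_assoc]
  rw [e1]
  have e2 : s k x y * (s k x z * s k y z) = s k y z * (s k x y * s k x z) := by
    rw [← mul_assoc, s_central hcl k y z]
  simp only [mul_assoc]
  rw [e2]

theorem one_bmul (k : ℕ) (x : Γ) : bmul k 1 x = x := by
  unfold bmul
  rw [s_of_central_left k 1 x (by simp)]; simp

theorem bmul_one (k : ℕ) (x : Γ) : bmul k x 1 = x := by
  unfold bmul
  rw [s_of_central_right k 1 x (by simp)]; simp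

theorem bmul_comm (hcl : ∀ x y z : Γ, ⁅x, y⁆ * z = z * ⁅x, y⁆) (k : ℕ)
    (hk : ∀ z : Γ, z ^ k * z ^ k = z) (x y : Γ) : bmul k x y = bmul k y x := by
  unfold bmul
  have h1 : (x : Γ) * y = y * x * ⁅x, y⁆ := by
    rw [← hcl]; simp only [commutatorElement_def]; group
  have h2 : ⁅(x : Γ), y⁆ = s k y x * s k y x := (hk _).symm
  rw [h1, h2]
  simp only [mul_assoc]
  rw [s_swap, mul_one]

theorem inv_bmul (k : ℕ) (x : Γ) : bmul k x⁻¹ x = 1 := by
  unfold bmul s
  simp [commutatorElement_def]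

/-- Baer's commutative group structure. -/
@[reducible] def commGroup (hcl : ∀ x y z : Γ, ⁅x, y⁆ * z = z * ⁅x, y⁆) (k : ℕ)
    (hk : ∀ z : Γ, z ^ k * z ^ k = z) : CommGroup (Baer Γ) where
  mul := @bmul Γ _ k
  one := (1 : Γ)
  inv := (fun x : Γ => x⁻¹ : Γ → Γ)
  mul_assoc := bmul_assoc hcl k
  one_mul := @one_bmul Γ _ k
  mul_one := @bmul_one Γ _ k
  mul_comm := bmul_comm hcl k hk
  inv_mul_cancel := @inv_bmul Γ _ k

theorem map_bmul (k : ℕ) (f : MulAut Γ) (x y : Γ) : f (bmul k x y) = bmul k (f x) (f y) := by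
  unfold bmul s
  rw [map_mul, map_mul, map_pow, map_commutatorElement]

/-- Automorphisms of `Γ` are automorphisms of Baer's group. -/
def autHom (hcl : ∀ x y z : Γ, ⁅x, y⁆ * z = z * ⁅x, y⁆) (k : ℕ)
    (hk : ∀ z : Γ, z ^ k * z ^ k = z) :
    letI := commGroup hcl k hk
    MulAut Γ →* MulAut (Baer Γ) :=
  letI := commGroup hcl k hk
  { toFun := fun f =>
      { toFun := (f : Γ → Γ)
        invFun := (f.symm : Γ → Γ)
        left_inv := fun _ => f.symm_apply_apply _
        right_inv := fun _ => f.apply_symm_apply _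
        map_mul' := fun x y => map_bmul k f x y }
    map_one' := rfl
    map_mul' := fun _ _ => rfl }

end Baer

/-- The abelian case of Thompson's strengthened `P × Q` lemma, for abstract actions. -/
theorem pq_abelian {V : Type*} [CommGroup V] [Finite V] {p : ℕ} [Fact p.Prime]
    (hV : IsPGroup p V) {A B : Type*} [Group A] [Finite A] [Group B] [Finite B]
    (hP : IsPGroup p A) (hQ : (Nat.card B).Coprime p)
    (α : A →* MulAut V) (β : B →* MulAut V) (σ : A → Equiv.Perm B)
    (hσ : ∀ u q x, α u (β q x) = β (σ u q) (α u x))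
    (hfix : ∀ y, (∀ u, α u y = y) → ∀ q, β q y = y) : ∀ q y, β q y = y := by
  classical
  have _ : Fintype B := Fintype.ofFinite B
  let N : V →* V :=
    { toFun := fun v => ∏ q : B, β q v
      map_one' := by simp
      map_mul' := fun x y => by simp [Finset.prod_mul_distrib] }
  have hN : ∀ v, N v = ∏ q : B, β q v := fun v => rfl
  have hNα : ∀ u v, N (α u v) = α u (N v) := by
    intro u v
    rw [hN, hN, map_prod]
    rw [← Equiv.prod_comp (σ u) (fun q => β q (α u v))]
    exact Finset.prod_congr rfl fun q _ => (hσ u q v).symm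
  have hNβ : ∀ q v, N (β q v) = N v := by
    intro q v
    rw [hN, hN, ← Equiv.prod_comp (Equiv.mulRight q) (fun q' => β q' v)]
    refine Finset.prod_congr rfl fun q' _ => ?_
    simp [map_mul]
  have hker : N.ker = ⊥ := by
    by_contra hne
    let _ : MulAction A N.ker :=
      { smul := fun u v => ⟨α u v.1, by
          rw [MonoidHom.mem_ker, hNα, MonoidHom.mem_ker.1 v.2, map_one]⟩
        one_smul := fun v => Subtype.ext (by
          show α 1 v.1 = v.1
          simp)
        mul_smul := fun u u' v => Subtype.ext (by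
          show α (u * u') v.1 = α u (α u' v.1)
          simp) }
    have hsm : ∀ (u : A) (v : N.ker), ((u • v : N.ker) : V) = α u v.1 := fun _ _ => rfl
    have hK : IsPGroup p N.ker := hV.to_subgroup _
    have hdvd : p ∣ Nat.card N.ker := by
      obtain ⟨n, hn⟩ := IsPGroup.iff_card.mp hK
      rcases n with _ | n
      · exact absurd (Subgroup.card_eq_one.1 (by simpa using hn)) hne
      · rw [hn, pow_succ]; exact dvd_mul_left _ _
    have h1 : (1 : N.ker) ∈ MulAction.fixedPoints A N.ker := by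
      intro u
      apply Subtype.ext
      rw [hsm]; simp
    obtain ⟨b, hb, hb1⟩ := hP.exists_fixed_point_of_prime_dvd_card_of_fixed_point _ hdvd h1
    have hbf : ∀ u, α u b.1 = b.1 := fun u => by rw [← hsm, hb u]
    have hbq := hfix b.1 hbf
    have hNb : N b.1 = b.1 ^ Nat.card B := by
      rw [hN, Finset.prod_congr rfl (fun q _ => hbq q), Finset.prod_const, Finset.card_univ,
        Nat.card_eq_fintype_card]
    rw [MonoidHom.mem_ker.1 b.2] at hNb
    obtain ⟨m, hm⟩ := hV b.1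
    have : b.1 = 1 := by
      have hcop : (Nat.card B).Coprime (p ^ m) := Nat.Coprime.pow_right m hQ
      have h2 : orderOf b.1 ∣ Nat.card B := orderOf_dvd_of_pow_eq_one hNb.symm
      have h3 : orderOf b.1 ∣ p ^ m := orderOf_dvd_of_pow_eq_one hm
      exact orderOf_eq_one_iff.1 (Nat.eq_one_of_dvd_coprimes hcop h2 h3)
    exact hb1 (Subtype.ext this.symm)
  intro q y
  exact (MonoidHom.ker_eq_bot_iff N).1 hker (hNβ q y)

/-- Thompson's strengthened `P × Q` lemma for abstract actions on a `p`-group of class at most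
two, `p` odd. -/
theorem pq_class_two {Γ : Type*} [Group Γ] [Finite Γ] {p : ℕ} [Fact p.Prime] (hp : p ≠ 2)
    (hΓ : IsPGroup p Γ) (hcl : ∀ x y z : Γ, ⁅x, y⁆ * z = z * ⁅x, y⁆)
    {A B : Type*} [Group A] [Finite A] [Group B] [Finite B]
    (hP : IsPGroup p A) (hQ : (Nat.card B).Coprime p)
    (α : A →* MulAut Γ) (β : B →* MulAut Γ) (σ : A → Equiv.Perm B)
    (hσ : ∀ u q x, α u (β q x) = β (σ u q) (α u x))
    (hfix : ∀ y, (∀ u, α u y = y) → ∀ q, β q y = y) : ∀ q y, β q y = y := by
  obtain ⟨n, hn⟩ := IsPGroup.iff_card.mp hΓ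
  have hodd : Odd (Nat.card Γ) := by
    rw [hn]
    exact ((Fact.out : p.Prime).odd_of_ne_two hp).pow
  obtain ⟨k, hk⟩ := hodd
  have hk' : ∀ z : Γ, z ^ (k + 1) * z ^ (k + 1) = z := by
    intro z
    rw [← pow_add, show k + 1 + (k + 1) = (2 * k + 1) + 1 by ring, ← hk, pow_succ,
      pow_card_eq_one', one_mul]
  let _ := Baer.commGroup hcl (k + 1) hk'
  have _ : Finite (Baer Γ) := inferInstanceAs (Finite Γ)
  have hV : IsPGroup p (Baer Γ) := IsPGroup.of_card (n := n) hn
  exact pq_abelian (V := Baer Γ) hV hP hQ ((Baer.autHom hcl (k + 1) hk').comp α)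
    ((Baer.autHom hcl (k + 1) hk').comp β) σ hσ hfix

end Cfsg.Agent.Lib.Helper18
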