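import Mathlib
import Cfsg.Prelude.Def_OddOrderLocal
import Cfsg.Agent.S1466
import Cfsg.Agent.S1467

set_option autoImplicit false

namespace Cfsg.Agent.Lib.Helper18.Puig

open Subgroup

variable {G : Type*} [Group G]

theorem comm_iff (A : Subgroup G) : IsMulCommutative A ↔ ∀ a ∈ A, ∀ b ∈ A, a * b = b * a := by
  constructor
  · intro h a ha b hb
    exact congrArg Subtype.val (h.is_comm.comm ⟨a, ha⟩ ⟨b, hb⟩)
  · intro h
    exact ⟨⟨fun a b => Subtype.ext (h a.1 a.2 b.1 b.2)⟩⟩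

/-- The relative Puig step: the subgroup generated by the abelian subgroups of `R` normalized by `D`. -/
def LL (R D : Subgroup G) : Subgroup G :=
  sSup {A : Subgroup G | A ≤ R ∧ IsMulCommutative A ∧ D ≤ normalizer (A : Set G)}

/-- The relative Puig series of the subgroup `R`. -/
def seq (R : Subgroup G) : ℕ → Subgroup G
  | 0 => ⊥
  | n + 1 => LL R (seq R n)

theorem LL_le (R D : Subgroup G) : LL R D ≤ R := sSup_le fun _ hA => hA.1

theorem LL_anti (R : Subgroup G) {D E : Subgroup G} (h : D ≤ E) : LL R E ≤ LL R D :=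
  sSup_le_sSup fun _ hA => ⟨hA.1, hA.2.1, h.trans hA.2.2⟩

theorem LL_mono {R R' : Subgroup G} (h : R ≤ R') (D : Subgroup G) : LL R D ≤ LL R' D :=
  sSup_le_sSup fun _ hA => ⟨hA.1.trans h, hA.2.1, hA.2.2⟩

theorem le_LL {R D A : Subgroup G} (h1 : A ≤ R) (h2 : IsMulCommutative A)
    (h3 : D ≤ normalizer (A : Set G)) : A ≤ LL R D := le_sSup ⟨h1, h2, h3⟩

theorem seq_le (R : Subgroup G) (n : ℕ) : seq R n ≤ R := by
  cases n with
  | zero => exact bot_le
  | succ n => exact LL_le _ _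

theorem seq_succ (R : Subgroup G) (n : ℕ) : seq R (n + 1) = LL R (seq R n) := rfl

theorem map_puigStep (R : Subgroup G) (X : Subgroup R) :
    (Cfsg.puigStep X).map R.subtype = LL R (X.map R.subtype) := by
  apply le_antisymm
  · rw [map_le_iff_le_comap]
    apply sSup_le
    rintro A ⟨hA, hX⟩
    rw [← map_le_iff_le_comap]
    apply le_LL (map_subtype_le _)
    · rw [comm_iff]
      rintro _ ⟨a, ha, rfl⟩ _ ⟨b, hb, rfl⟩
      rw [← map_mul, ← map_mul, (comm_iff A).1 hA a ha b hb]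
    · rw [le_normalizer_iff]
      rintro _ ⟨x, hx, rfl⟩ _ ⟨a, ha, rfl⟩
      exact ⟨x * a * x⁻¹, le_normalizer_iff.1 hX x hx a ha, rfl⟩
  · apply sSup_le
    rintro B ⟨hBR, hB, hD⟩
    rw [← map_subgroupOf_eq_of_le hBR]
    apply map_mono
    apply le_sSup
    refine ⟨?_, ?_⟩
    · rw [comm_iff]
      intro a ha b hb
      exact Subtype.ext ((comm_iff B).1 hB a.1 ha b.1 hb)
    · rw [le_normalizer_iff]
      intro x hx b hb
      exact le_normalizer_iff.1 hD x.1 ⟨x, hx, rfl⟩ b.1 hb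

theorem map_puigSeq (R : Subgroup G) (n : ℕ) :
    (Cfsg.puigSeq R n).map R.subtype = seq R n := by
  induction n with
  | zero => exact Subgroup.map_bot _
  | succ n ih =>
    show (Cfsg.puigStep (Cfsg.puigSeq R n)).map R.subtype = LL R (seq R n)
    rw [map_puigStep, ih]

/-- `L_*(R)` inside `G`. -/
def Lo (R : Subgroup G) : Subgroup G := (Cfsg.puigLower R).map R.subtype

/-- `L(R)` inside `G`. -/
def Up (R : Subgroup G) : Subgroup G := (Cfsg.puigSubgroup R).map R.subtype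

theorem exists_stable (R : Subgroup G) [Finite R] :
    ∃ k : ℕ, ∀ n : ℕ, k ≤ n → seq R (2 * n) = Lo R ∧ seq R (2 * n + 1) = Up R := by
  obtain ⟨-, -, -, ⟨k, hk⟩, -⟩ := Cfsg.Agent.S1467.result (G := R)
  refine ⟨k, fun n hn => ?_⟩
  rw [← map_puigSeq, ← map_puigSeq, (hk n hn).1, (hk n hn).2]
  exact ⟨rfl, rfl⟩

theorem Lo_le_Up (R : Subgroup G) [Finite R] : Lo R ≤ Up R :=
  map_mono (Cfsg.Agent.S1467.result (G := R)).2.2.2.2.1

theorem LL_Lo (R : Subgroup G) [Finite R] : LL R (Lo R) = Up R := by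
  unfold Lo Up
  rw [← map_puigStep, (Cfsg.Agent.S1467.result (G := R)).2.2.2.2.2.1]

theorem LL_Up (R : Subgroup G) [Finite R] : LL R (Up R) = Lo R := by
  unfold Lo Up
  rw [← map_puigStep, (Cfsg.Agent.S1467.result (G := R)).2.2.2.2.2.2]

theorem Up_le (R : Subgroup G) : Up R ≤ R := map_subtype_le _

theorem Lo_le (R : Subgroup G) : Lo R ≤ R := map_subtype_le _

theorem map_LL {H : Type*} [Group H] (f : G →* H) (R D : Subgroup G) (hD : D ≤ R)
    (hf : ∀ x ∈ R, f x = 1 → x = 1) : (LL R D).map f = LL (R.map f) (D.map f) := by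
  have hinj : ∀ x ∈ R, ∀ y ∈ R, f x = f y → x = y := by
    intro x hx y hy h
    have := hf (x * y⁻¹) (mul_mem hx (inv_mem hy)) (by rw [map_mul, map_inv, h, mul_inv_cancel])
    exact mul_inv_eq_one.1 this
  apply le_antisymm
  · rw [map_le_iff_le_comap]
    apply sSup_le
    rintro A ⟨hAR, hA, hX⟩
    rw [← map_le_iff_le_comap]
    apply le_LL (map_mono hAR)
    · rw [comm_iff]
      rintro _ ⟨a, ha, rfl⟩ _ ⟨b, hb, rfl⟩
      rw [← map_mul, ← map_mul, (comm_iff A).1 hA a ha b hb]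
    · rw [le_normalizer_iff]
      rintro _ ⟨x, hx, rfl⟩ _ ⟨a, ha, rfl⟩
      exact ⟨x * a * x⁻¹, le_normalizer_iff.1 hX x hx a ha, by simp⟩
  · apply sSup_le
    rintro B ⟨hBR, hB, hDB⟩
    have h1 : B = (R ⊓ B.comap f).map f := by
      apply le_antisymm
      · intro b hb
        obtain ⟨r, hr, rfl⟩ := hBR hb
        exact ⟨r, mem_inf.2 ⟨hr, hb⟩, rfl⟩
      · rintro _ ⟨r, hr, rfl⟩
        exact (mem_inf.1 hr).2
    rw [h1]
    apply map_mono
    apply le_LL inf_le_left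
    · rw [comm_iff]
      intro a ha b hb
      obtain ⟨ha1, ha2⟩ := mem_inf.1 ha
      obtain ⟨hb1, hb2⟩ := mem_inf.1 hb
      apply hinj _ (mul_mem ha1 hb1) _ (mul_mem hb1 ha1)
      rw [map_mul, map_mul]
      exact (comm_iff B).1 hB _ ha2 _ hb2
    · rw [le_normalizer_iff]
      intro d hd a ha
      obtain ⟨ha1, ha2⟩ := mem_inf.1 ha
      refine mem_inf.2 ⟨mul_mem (mul_mem (hD hd) ha1) (inv_mem (hD hd)), ?_⟩
      rw [mem_comap, map_mul, map_mul, map_inv]
      exact le_normalizer_iff.1 hDB _ ⟨d, hd, rfl⟩ _ ha2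

theorem map_seq {H : Type*} [Group H] (f : G →* H) (R : Subgroup G)
    (hf : ∀ x ∈ R, f x = 1 → x = 1) (n : ℕ) : (seq R n).map f = seq (R.map f) n := by
  induction n with
  | zero => exact Subgroup.map_bot _
  | succ n ih =>
    show (LL R (seq R n)).map f = LL (R.map f) (seq (R.map f) n)
    rw [map_LL f R _ (seq_le R n) hf, ih]

theorem map_Up {H : Type*} [Group H] (f : G →* H) (R : Subgroup G) [Finite R]
    (hf : ∀ x ∈ R, f x = 1 → x = 1) : (Up R).map f = Up (R.map f) := by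
  have : Finite (R.map f) := by
    have : Finite ((R.map f : Subgroup H) : Set H) := by
      rw [coe_map]; exact Set.Finite.image _ (Set.toFinite _)
    exact this
  obtain ⟨k, hk⟩ := exists_stable R
  obtain ⟨k', hk'⟩ := exists_stable (R.map f)
  rw [← (hk (max k k') (le_max_left _ _)).2, ← (hk' (max k k') (le_max_right _ _)).2, map_seq f R hf]

theorem map_conj_eq_of_mem_normalizer {R : Subgroup G} {g : G} (hg : g ∈ normalizer (R : Set G)) :
    R.map (MulAut.conj g).toMonoidHom = R := by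
  ext x
  constructor
  · rintro ⟨y, hy, rfl⟩
    exact (mem_normalizer_iff.1 hg y).1 hy
  · intro hx
    refine ⟨g⁻¹ * x * g, ?_, by simp [mul_assoc]⟩
    have := (mem_normalizer_iff.1 (inv_mem hg) x).1 hx
    simpa using this

theorem normalizer_le_normalizer_seq (R : Subgroup G) (n : ℕ) :
    normalizer (R : Set G) ≤ normalizer (seq R n : Set G) := by
  rw [le_normalizer_iff]
  intro g hg x hx
  have h1 := map_seq (MulAut.conj g).toMonoidHom R (fun x _ h => by simpa using h) n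
  rw [map_conj_eq_of_mem_normalizer hg] at h1
  rw [← h1]
  exact ⟨x, hx, rfl⟩

theorem normalizer_le_normalizer_Up (R : Subgroup G) [Finite R] :
    normalizer (R : Set G) ≤ normalizer (Up R : Set G) := by
  obtain ⟨k, hk⟩ := exists_stable R
  rw [← (hk k le_rfl).2]
  exact normalizer_le_normalizer_seq R _

/-- `C_R(L_i(R)) ≤ L_i(R)` for a `p`-subgroup `R`. -/
theorem centralizer_seq_le [Finite G] (p : ℕ) [Fact p.Prime] (R : Subgroup G) (hR : IsPGroup p R)
    (i : ℕ) (hi : 0 < i) : R ⊓ centralizer (seq R i : Set G) ≤ seq R i := by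
  by_cases hb : R = ⊥
  · rw [hb]; simp
  have : Nontrivial R := (nontrivial_iff_ne_bot R).2 hb
  have h1 := ((Cfsg.Agent.S1466.result (R := R) p hR).1 i hi).2
  intro x hx
  obtain ⟨hxR, hxC⟩ := mem_inf.1 hx
  rw [← map_puigSeq]
  refine ⟨⟨x, hxR⟩, h1 ?_, rfl⟩
  rw [mem_centralizer_iff]
  intro y hy
  apply Subtype.ext
  refine (mem_centralizer_iff.1 hxC) y.1 ?_
  rw [← map_puigSeq]
  exact ⟨y, hy, rfl⟩

theorem centralizer_Up_le [Finite G] (p : ℕ) [Fact p.Prime] (R : Subgroup G) (hR : IsPGroup p R) :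
    R ⊓ centralizer (Up R : Set G) ≤ Up R := by
  obtain ⟨k, hk⟩ := exists_stable R
  rw [← (hk k le_rfl).2]
  exact centralizer_seq_le p R hR _ (by omega)

/-- If `L(R) ≤ H ≤ R` then `L(H) = L(R)`. -/
theorem Up_eq_of_le [Finite G] {R H : Subgroup G} (h1 : Up R ≤ H) (h2 : H ≤ R) : Up H = Up R := by
  have key : ∀ n : ℕ, (seq R (2 * n) ≤ seq H (2 * n) ∧ seq H (2 * n) ≤ Lo R) ∧
      (seq H (2 * n + 1) ≤ seq R (2 * n + 1) ∧ Up R ≤ seq H (2 * n + 1)) := by
    have hev : ∀ n, seq R (2 * n) ≤ Lo R := by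
      intro n
      rw [← map_puigSeq]
      exact map_mono (le_iSup (fun n => Cfsg.puigSeq R (2 * n)) n)
    have hstep : ∀ D : Subgroup G, D ≤ Lo R → Up R ≤ LL H D := by
      intro D hD
      rw [← LL_Lo R]
      apply sSup_le
      rintro A ⟨hAR, hA, hAn⟩
      have hAU : A ≤ Up R := by
        rw [← LL_Lo R]; exact le_LL hAR hA hAn
      exact le_LL (hAU.trans h1) hA (hD.trans hAn)
    intro n
    induction n with
    | zero =>
      refine ⟨⟨le_rfl, bot_le⟩, LL_mono h2 _, hstep _ bot_le⟩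
    | succ n ih =>
      obtain ⟨⟨a1, a2⟩, b1, b2⟩ := ih
      have c1 : seq R (2 * (n + 1)) ≤ seq H (2 * (n + 1)) := by
        show LL R (seq R (2 * n + 1)) ≤ LL H (seq H (2 * n + 1))
        apply sSup_le
        rintro A ⟨hAR, hA, hAn⟩
        have hA1 : A ≤ seq R (2 * (n + 1)) := le_LL hAR hA hAn
        exact le_LL (((hA1.trans (hev _)).trans (Lo_le_Up R)).trans h1) hA (b1.trans hAn)
      have c2 : seq H (2 * (n + 1)) ≤ Lo R := by
        show LL H (seq H (2 * n + 1)) ≤ Lo R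
        rw [← LL_Up R]
        exact (LL_anti H b2).trans (LL_mono h2 _)
      refine ⟨⟨c1, c2⟩, ?_, hstep _ c2⟩
      show LL H (seq H (2 * (n + 1))) ≤ LL R (seq R (2 * (n + 1)))
      exact (LL_anti H c1).trans (LL_mono h2 _)
  obtain ⟨k, hk⟩ := exists_stable R
  obtain ⟨k', hk'⟩ := exists_stable H
  have h3 := (key (max k k')).2
  rw [(hk _ (le_max_left _ _)).2, (hk' _ (le_max_right _ _)).2] at h3
  exact le_antisymm h3.1 h3.2

end Cfsg.Agent.Lib.Helper18.Puig
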